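/-
S0518 (helper12's KS project), package [Map]: an element carrying `Q₁` into `Q₂` carries
side 1 to side 2.  (helper1)
-/
import Mathlib
import Cfsg.Agent.Lib.Helper12.KS.Defs

set_option autoImplicit false
open Cfsg
open Cfsg.Agent.Lib.Helper12.KS

namespace Cfsg.Agent.Lib.Helper1.KS

universe u

/-- If conjugation by `x` carries `A` into `B` and the two have the same finite order, then
conjugation by `x⁻¹` carries `B` into `A`. -/
theorem conj_back_of_card_eq {G : Type u} [Group G] [Finite G] {A B : Subgroup G} (x : G)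
    (h : ∀ a ∈ A, x * a * x⁻¹ ∈ B) (hc : Nat.card ↥A = Nat.card ↥B) :
    ∀ b ∈ B, x⁻¹ * b * x ∈ A := by
  have hle : A.map (MulAut.conj x).toMonoidHom ≤ B := by
    rintro _ ⟨a, ha, rfl⟩
    simpa using h a ha
  have hcard : Nat.card ↥(A.map (MulAut.conj x).toMonoidHom) = Nat.card ↥A :=
    Subgroup.card_map_of_injective (MulAut.conj x).injective
  have heq : A.map (MulAut.conj x).toMonoidHom = B :=
    Subgroup.eq_of_le_of_card_ge hle (by rw [hcard, hc])
  intro b hb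
  rw [← heq] at hb
  obtain ⟨a, ha, rfl⟩ := hb
  simpa [mul_assoc] using ha

/-- Conjugation by `x` carries the normalizer of `A` into the normalizer of `B`, when it carries
`A` into `B` and its inverse carries `B` into `A`. -/
theorem conj_mem_normalizer_of_maps {G : Type u} [Group G] {A B : Subgroup G} (x : G)
    (h : ∀ a ∈ A, x * a * x⁻¹ ∈ B) (h' : ∀ b ∈ B, x⁻¹ * b * x ∈ A) {p : G}
    (hp : p ∈ Subgroup.normalizer (A : Set G)) :
    x * p * x⁻¹ ∈ Subgroup.normalizer (B : Set G) := by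
  rw [Subgroup.mem_normalizer_iff] at hp ⊢
  intro q
  constructor
  · intro hq
    have e1 := h' q hq
    have e2 := (hp _).mp e1
    have e3 := h _ e2
    convert e3 using 1
    group
  · intro hq
    have e1 := h' _ hq
    have e2 : p * (x⁻¹ * q * x) * p⁻¹ ∈ A := by
      convert e1 using 1
      group
    have e3 := (hp _).mpr e2
    have e4 := h _ e3
    convert e4 using 1
    group

/-- Package [Map] of the S0518 project. -/
theorem pkgMap (hN : PkgNrm.{u}) (h1 : PkgO1.{u}) (h3 : PkgO3.{u}) : PkgMap.{u} := by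
  intro G _ _ P₁ P₂ T Q₁ Q₂ W₁ W₂ c₁ c₂ hB x hx
  have b1 := h1 hB.side₁
  have b2 := h1 hB.side₂
  have u2 := h3 hB.side₂
  obtain ⟨hNQ1, hNW1, hC1⟩ := hN hB.max₁ hB.side₁
  obtain ⟨hNQ2, hNW2, hC2⟩ := hN hB.max₂ hB.side₂
  have hback : ∀ q ∈ Q₂, x⁻¹ * q * x ∈ Q₁ :=
    conj_back_of_card_eq x hx (by rw [b1.card_Q, b2.card_Q])
  have hP : ∀ p ∈ P₁, x * p * x⁻¹ ∈ P₂ := by
    intro p hp
    rw [← hNQ2]
    rw [← hNQ1] at hp
    exact conj_mem_normalizer_of_maps x hx hback hp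
  have hP' : ∀ p ∈ P₂, x⁻¹ * p * x ∈ P₁ := by
    intro p hp
    rw [← hNQ1]
    rw [← hNQ2] at hp
    have := conj_mem_normalizer_of_maps (A := Q₂) (B := Q₁) x⁻¹
      (by intro a ha; simpa using hback a ha) (by intro b hb; simpa using hx b hb) hp
    simpa using this
  have hW1P : W₁ ≤ P₁ := hB.side₁.W_le
  have hc1P : c₁ ∈ P₁ := hB.side₁.c_mem
  -- the image of `W₁`
  have hW : ∀ v ∈ W₁, x * v * x⁻¹ ∈ W₂ := by
    have hle : W₁.map (MulAut.conj x).toMonoidHom ≤ P₂ := by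
      rintro _ ⟨a, ha, rfl⟩
      simpa using hP a (hW1P ha)
    have hcard : Nat.card ↥(W₁.map (MulAut.conj x).toMonoidHom) = 4 := by
      rw [Subgroup.card_map_of_injective (MulAut.conj x).injective, b1.card_W]
    have hnorm : ∀ p ∈ P₂, ∀ n ∈ W₁.map (MulAut.conj x).toMonoidHom,
        p * n * p⁻¹ ∈ W₁.map (MulAut.conj x).toMonoidHom := by
      rintro p hp _ ⟨a, ha, rfl⟩
      refine ⟨(x⁻¹ * p * x) * a * (x⁻¹ * p * x)⁻¹, b1.W_normal _ (hP' p hp) a ha, ?_⟩
      simp only [MulEquiv.coe_toMonoidHom, MulAut.conj_apply]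
      group
    have heq := u2.four _ hle hcard hnorm
    intro v hv
    rw [← heq]
    exact ⟨v, hv, by simp⟩
  refine ⟨hx, hP, hW, ?_⟩
  have hcen : ∀ p ∈ P₂, p * (x * c₁ * x⁻¹) = (x * c₁ * x⁻¹) * p := by
    intro p hp
    have e := b1.c_central _ (hP' p hp)
    have e2 : x * (x⁻¹ * p * x * c₁) * x⁻¹ = x * (c₁ * (x⁻¹ * p * x)) * x⁻¹ := by rw [e]
    calc p * (x * c₁ * x⁻¹) = x * (x⁻¹ * p * x * c₁) * x⁻¹ := by group
      _ = x * (c₁ * (x⁻¹ * p * x)) * x⁻¹ := e2
      _ = (x * c₁ * x⁻¹) * p := by group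
  rcases u2.central _ (hP c₁ hc1P) hcen with h | h
  · exfalso
    apply b1.c_ne
    have : x⁻¹ * (x * c₁ * x⁻¹) * x = x⁻¹ * 1 * x := by rw [h]
    simpa [mul_assoc] using this
  · exact h

end Cfsg.Agent.Lib.Helper1.KS
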