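/-
S0518 (helper12's KS project), package [FusT]: no conjugate of `c₁` lies in `T₀ = W₁ ⊔ W₂`.
(helper1)
-/
import Mathlib
import Cfsg.Agent.Lib.Helper12.KS.Defs
import Cfsg.Agent.Lib.Helper1.KS.Map

set_option autoImplicit false
open Cfsg
open Cfsg.Agent.Lib.Helper12.KS

namespace Cfsg.Agent.Lib.Helper1.KS

universe u

/-- Two involutions whose product is an involution commute. -/
theorem comm_of_sq_eq_one {A : Type*} [Group A] {a b : A} (ha : a * a = 1) (hb : b * b = 1)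
    (hab : (a * b) * (a * b) = 1) : a * b = b * a := by
  have e : b * a = a * ((a * b) * (a * b)) * b := by
    calc b * a = (a * a) * (b * a) * (b * b) := by rw [ha, hb, one_mul, mul_one]
      _ = a * ((a * b) * (a * b)) * b := by group
  rw [e, hab, mul_one]

/-- In a finite group, an element conjugating a subgroup into itself normalizes it. -/
theorem mem_normalizer_of_conj_mem {G : Type u} [Group G] [Finite G] {A : Subgroup G} (x : G)
    (h : ∀ a ∈ A, x * a * x⁻¹ ∈ A) : x ∈ Subgroup.normalizer (A : Set G) := by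
  have hback := conj_back_of_card_eq x h rfl
  rw [Subgroup.mem_normalizer_iff]
  intro q
  constructor
  · exact h q
  · intro hq
    have := hback _ hq
    simpa [mul_assoc] using this

/-- Package [FusT] of the S0518 project. -/
theorem pkgFusT (h1 : PkgO1.{u}) (hN : PkgNrm.{u}) (hI : PkgInv.{u}) (hF : PkgFus.{u})
    (hM : PkgMap.{u}) (hT0 : PkgT0.{u}) (hW : PkgW.{u}) : PkgFusT.{u} := by
  intro G _ _ P₁ P₂ T Q₁ Q₂ W₁ W₂ c₁ c₂ hB g hgT hgT0
  have b1 := h1 hB.side₁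
  have b2 := h1 hB.side₂
  obtain ⟨w, wf⟩ := hW hB
  have inv := hI hB
  have t0 := hT0 hB
  obtain ⟨hNQ1, hNW1, hC1⟩ := hN hB.max₁ hB.side₁
  obtain ⟨hNQ2, hNW2, hC2⟩ := hN hB.max₂ hB.side₂
  have hTp : IsPGroup 2 ↥T := b1.syl.2.1
  have hc1W2 : c₁ ∉ W₂ := by
    intro h
    apply b2.c_not_W
    rw [wf.c₂_eq]
    exact W₂.mul_mem h wf.w_mem₂
  have hsq : (g * c₁ * g⁻¹) * (g * c₁ * g⁻¹) = 1 := by
    calc (g * c₁ * g⁻¹) * (g * c₁ * g⁻¹) = g * (c₁ * c₁) * g⁻¹ := by group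
      _ = 1 := by rw [b1.c_sq, mul_one, mul_inv_cancel]
  -- the general step: `Q` elementary abelian of order 8 in `T` containing the conjugate
  have key : ∀ Q : Subgroup G, Q ≤ T → Nat.card ↥Q = 8 → (∀ q ∈ Q, q * q = 1) →
      g * c₁ * g⁻¹ ∈ Q →
      ∃ h : G, h * (g * c₁ * g⁻¹) * h⁻¹ = c₁ ∧
        ((∀ q ∈ Q, h * q * h⁻¹ ∈ Q₁) ∨ (∀ q ∈ Q, h * q * h⁻¹ ∈ Q₂)) := by
    intro Q hQT hQc hQsq hcQ
    have hcomm : ∀ r ∈ Q, r * (g * c₁ * g⁻¹) = (g * c₁ * g⁻¹) * r := fun r hr =>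
      comm_of_sq_eq_one (hQsq r hr) hsq (hQsq _ (Q.mul_mem hr hcQ))
    obtain ⟨h, hh1, hh2⟩ := hF P₁ T c₁ b1.syl hC1 g Q (hTp.to_le hQT) hcomm
    refine ⟨h, hh1, ?_⟩
    have hle : Q.map (MulAut.conj h).toMonoidHom ≤ T := by
      rintro _ ⟨a, ha, rfl⟩
      simpa using hh2 a ha
    have hcard : Nat.card ↥(Q.map (MulAut.conj h).toMonoidHom) = 8 := by
      rw [Subgroup.card_map_of_injective (MulAut.conj h).injective, hQc]
    have hexp : ∀ a ∈ Q.map (MulAut.conj h).toMonoidHom, a * a = 1 := by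
      rintro _ ⟨a, ha, rfl⟩
      simp only [MulEquiv.coe_toMonoidHom, MulAut.conj_apply]
      calc h * a * h⁻¹ * (h * a * h⁻¹) = h * (a * a) * h⁻¹ := by group
        _ = 1 := by rw [hQsq a ha, mul_one, mul_inv_cancel]
    rcases inv.e8 _ hle hcard hexp with he | he
    · left
      intro q hq
      rw [← he]
      exact ⟨q, hq, by simp⟩
    · right
      intro q hq
      rw [← he]
      exact ⟨q, hq, by simp⟩
  rcases inv.invol _ hgT hsq with hcQ | hcQ
  · obtain ⟨h, hh1, hh2 | hh2⟩ := key Q₁ b1.Q_le_T b1.card_Q b1.Q_sq hcQ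
    · -- `h` normalizes `Q₁`, hence centralizes `c₁`
      have hP : h ∈ Subgroup.centralizer ({c₁} : Set G) := by
        rw [hC1, ← hNQ1]
        exact mem_normalizer_of_conj_mem h hh2
      rw [Subgroup.mem_centralizer_iff] at hP
      have e := hP c₁ rfl
      have e2 : g * c₁ * g⁻¹ = c₁ := by
        calc g * c₁ * g⁻¹ = h⁻¹ * (h * (g * c₁ * g⁻¹) * h⁻¹) * h := by group
          _ = h⁻¹ * c₁ * h := by rw [hh1]
          _ = h⁻¹ * (c₁ * h) := by group
          _ = h⁻¹ * (h * c₁) := by rw [e]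
          _ = c₁ := by group
      rw [e2] at hgT0
      exact t0.c₁_not hgT0
    · -- `h` carries `Q₁` to `Q₂`
      have m := hM hB h hh2
      have hcW1 := t0.inter_Q₁ _ hgT0 hcQ
      have := m.W _ hcW1
      rw [hh1] at this
      exact hc1W2 this
  · obtain ⟨h, hh1, hh2 | hh2⟩ := key Q₂ b2.Q_le_T b2.card_Q b2.Q_sq hcQ
    · -- `h` carries `Q₂` to `Q₁`
      have m := hM hB.symm h hh2
      have e := m.c
      have e2 : g * c₁ * g⁻¹ = c₂ := by
        calc g * c₁ * g⁻¹ = h⁻¹ * (h * (g * c₁ * g⁻¹) * h⁻¹) * h := by group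
          _ = h⁻¹ * c₁ * h := by rw [hh1]
          _ = h⁻¹ * (h * c₂ * h⁻¹) * h := by rw [e]
          _ = c₂ := by group
      rw [e2] at hgT0
      exact t0.c₂_not hgT0
    · -- `h` normalizes `Q₂`
      have hP : h ∈ P₂ := by
        rw [← hNQ2]
        exact mem_normalizer_of_conj_mem h hh2
      have hcW2 := t0.inter_Q₂ _ hgT0 hcQ
      have := b2.W_normal h hP _ hcW2
      rw [hh1] at this
      exact hc1W2 this

end Cfsg.Agent.Lib.Helper1.KS
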