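/-
S0518 (helper12's KS project), package [T0]: the dihedral subgroup `T₀ = W₁ ⊔ W₂` of index 2
in `T`.  (helper1)
-/
import Mathlib
import Cfsg.Agent.Lib.Helper12.KS.Defs

set_option autoImplicit false
open Cfsg
open Cfsg.Agent.Lib.Helper12.KS

namespace Cfsg.Agent.Lib.Helper1.KS

universe u

/-- Products and membership for a subgroup of relative index two. -/
theorem mul_mem_iff_relIndex_two {A : Type*} [Group A] {H K : Subgroup A}
    (h : H.relIndex K = 2) {a b : A} (ha : a ∈ K) (hb : b ∈ K) :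
    a * b ∈ H ↔ (a ∈ H ↔ b ∈ H) := by
  have hidx : (H.subgroupOf K).index = 2 := h
  have := Subgroup.mul_mem_iff_of_index_two hidx (a := ⟨a, ha⟩) (b := ⟨b, hb⟩)
  simpa [Subgroup.mem_subgroupOf] using this

/-- Elements of `A ⊔ B` when `B` normalizes `A`. -/
theorem exists_mul_of_mem_sup {A : Type*} [Group A] {H K : Subgroup A}
    (hn : ∀ k ∈ K, ∀ h ∈ H, k * h * k⁻¹ ∈ H) {x : A} (hx : x ∈ H ⊔ K) :
    ∃ a ∈ H, ∃ b ∈ K, x = a * b := by
  have hle : K ≤ Subgroup.normalizer (H : Set A) := by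
    intro k hk
    rw [Subgroup.mem_normalizer_iff]
    intro h
    constructor
    · intro hh
      exact hn k hk h hh
    · intro hh
      have := hn k⁻¹ (K.inv_mem hk) _ hh
      simpa [mul_assoc] using this
  have hc := Subgroup.coe_mul_of_right_le_normalizer_left H K hle
  have hx' : x ∈ ((H ⊔ K : Subgroup A) : Set A) := hx
  rw [hc] at hx'
  obtain ⟨a, ha, b, hb, rfl⟩ := Set.mem_mul.mp hx'
  exact ⟨a, ha, b, hb, rfl⟩

/-- Package [T0] of the S0518 project. -/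
theorem pkgT0 (h1 : PkgO1.{u}) (hW : PkgW.{u}) (hI : PkgInv.{u}) (hT : PkgT.{u}) : PkgT0.{u} := by
  intro G _ _ P₁ P₂ T Q₁ Q₂ W₁ W₂ c₁ c₂ hB
  have b1 := h1 hB.side₁
  have b2 := h1 hB.side₂
  obtain ⟨w, wf⟩ := hW hB
  have inv := hI hB
  obtain ⟨hPT, hQne, hWne, hcne⟩ := hT hB
  have hW1T : W₁ ≤ T := b1.W_le_Q.trans b1.Q_le_T
  have hW2T : W₂ ≤ T := b2.W_le_Q.trans b2.Q_le_T
  have hle : W₁ ⊔ W₂ ≤ T := sup_le hW1T hW2T
  have hc1T : c₁ ∈ T := b1.Q_le_T b1.c_mem_Q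
  -- elements of `T₀`
  have hel : ∀ x ∈ W₁ ⊔ W₂, ∃ a ∈ W₁, ∃ b ∈ W₂, x = a * b := fun x hx =>
    exists_mul_of_mem_sup (fun k hk h hh => b1.W_normal k (b1.T_le_P (hW2T hk)) h hh) hx
  have hc1W2 : c₁ ∉ W₂ := by
    intro h
    apply b2.c_not_W
    rw [wf.c₂_eq]
    exact W₂.mul_mem h wf.w_mem₂
  have hc2W1 : c₂ ∉ W₁ := by
    intro h
    apply b1.c_not_W
    have e : c₁ = c₂ * w := by rw [wf.c₂_eq, mul_assoc, wf.w_sq, mul_one]
    rw [e]
    exact W₁.mul_mem h wf.w_mem₁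
  have hQ1 : ∀ x ∈ W₁ ⊔ W₂, x ∈ Q₁ → x ∈ W₁ := by
    intro x hx hxQ
    obtain ⟨a, ha, b, hb, rfl⟩ := hel x hx
    have hbQ1 : b ∈ Q₁ := by
      have := Q₁.mul_mem (Q₁.inv_mem (b1.W_le_Q ha)) hxQ
      simpa using this
    rcases wf.inter_Q b hbQ1 (b2.W_le_Q hb) with h | h | h | h
    · rw [h, mul_one]; exact ha
    · rw [h]; exact W₁.mul_mem ha wf.w_mem₁
    · exact absurd (h ▸ hb) hc1W2
    · exact absurd (h ▸ hb) b2.c_not_W
  have hQ2 : ∀ x ∈ W₁ ⊔ W₂, x ∈ Q₂ → x ∈ W₂ := by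
    intro x hx hxQ
    obtain ⟨a, ha, b, hb, rfl⟩ := hel x hx
    have haQ2 : a ∈ Q₂ := by
      have := Q₂.mul_mem hxQ (Q₂.inv_mem (b2.W_le_Q hb))
      simpa using this
    rcases wf.inter_Q a (b1.W_le_Q ha) haQ2 with h | h | h | h
    · rw [h, one_mul]; exact hb
    · rw [h]; exact W₂.mul_mem wf.w_mem₂ hb
    · exact absurd (h ▸ ha) b1.c_not_W
    · exact absurd (h ▸ ha) hc2W1
  have hc1 : c₁ ∉ W₁ ⊔ W₂ := fun h => b1.c_not_W (hQ1 c₁ h b1.c_mem_Q)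
  have hc2 : c₂ ∉ W₁ ⊔ W₂ := fun h => b2.c_not_W (hQ2 c₂ h b2.c_mem_Q)
  -- the order of `T₀`
  have hcard : Nat.card ↥(W₁ ⊔ W₂) = 8 := by
    have hd1 : Nat.card ↥(W₁ ⊔ W₂) ∣ 16 := by
      rw [← b1.card_T]; exact Subgroup.card_dvd_of_le hle
    have hd2 : 4 ∣ Nat.card ↥(W₁ ⊔ W₂) := by
      rw [← b1.card_W]; exact Subgroup.card_dvd_of_le le_sup_left
    have hn4 : Nat.card ↥(W₁ ⊔ W₂) ≠ 4 := by
      intro h
      have e1 : W₁ = W₁ ⊔ W₂ :=
        Subgroup.eq_of_le_of_card_ge le_sup_left (by rw [h, b1.card_W])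
      have e2 : W₂ ≤ W₁ := by
        have : W₂ ≤ W₁ ⊔ W₂ := le_sup_right
        rwa [← e1] at this
      have e3 : W₂ = W₁ := Subgroup.eq_of_le_of_card_ge e2 (by rw [b1.card_W, b2.card_W])
      exact hWne e3.symm
    have hn16 : Nat.card ↥(W₁ ⊔ W₂) ≠ 16 := by
      intro h
      have e1 : W₁ ⊔ W₂ = T := Subgroup.eq_of_le_of_card_ge hle (by rw [h, b1.card_T])
      exact hc1 (e1 ▸ hc1T)
    have hle16 : Nat.card ↥(W₁ ⊔ W₂) ≤ 16 := Nat.le_of_dvd (by norm_num) hd1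
    generalize Nat.card ↥(W₁ ⊔ W₂) = n at *
    interval_cases n <;> omega
  have hrel : (W₁ ⊔ W₂).relIndex T = 2 := by
    have e := Subgroup.relIndex_mul_relIndex ⊥ (W₁ ⊔ W₂) T bot_le hle
    rw [Subgroup.relIndex_bot_left, Subgroup.relIndex_bot_left, hcard, b1.card_T] at e
    omega
  refine ⟨hle, hcard, hc1, hc2, ?_, ?_, hQ1, hQ2⟩
  · intro t ht
    by_cases h : t ∈ W₁ ⊔ W₂
    · exact Or.inl h
    · right
      rw [mul_mem_iff_relIndex_two hrel ht hc1T]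
      exact ⟨fun h' => absurd h' h, fun h' => absurd h' hc1⟩
  · intro F hF hFc hFsq
    have hsub : (F : Set G) ⊆ (W₁ : Set G) ∪ (W₂ : Set G) := by
      intro a ha
      rcases inv.invol a (hle (hF ha)) (hFsq a ha) with h | h
      · exact Or.inl (hQ1 a (hF ha) h)
      · exact Or.inr (hQ2 a (hF ha) h)
    rcases SubgroupClass.subset_union.mp hsub with h | h
    · exact Or.inl (Subgroup.eq_of_le_of_card_ge h (by rw [hFc, b1.card_W]))
    · exact Or.inr (Subgroup.eq_of_le_of_card_ge h (by rw [hFc, b2.card_W]))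

end Cfsg.Agent.Lib.Helper1.KS
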